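import Cfsg.Agent.H46.Order
import Cfsg.Agent.H47.FieldMap

/-!
# `B₂(2) ≅ S₆`

The transposed module of the adjoint representation has an orbit of six vectors on which the group acts as `S₆`.
-/

set_option autoImplicit false

namespace Cfsg.Agent.H46

open Cfsg.Lie
open scoped Matrix MatrixGroups

/-- The six vectors as bit masks. -/
def sixMask : List ℕ := [98, 610, 102, 550, 582, 518]

/-- The permutations induced by the eight root elements. -/
def sixPerm : List (List ℕ) := [[1, 0, 2, 3, 4, 5], [1, 0, 3, 2, 5, 4], [1, 0, 4, 5, 2, 3], [0, 1, 2, 3, 5, 4], [0, 1, 2, 5, 4, 3], [2, 3, 0, 1, 5, 4], [2, 4, 0, 5, 1, 3], [2, 1, 0, 3, 4, 5]]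

/-- The six vectors. -/
def sixVec (R : Type*) [CommRing R] (i : Fin 6) : chevB2.Idx → R :=
  fun a => ((sixMask.getD i.val 0 >>> code chevB2 a % 2 : ℕ) : R)

/-- The action of the `r`-th root element on the six vectors. -/
def sixAct (r : ℕ) (i : Fin 6) : Fin 6 := Fin.ofNat 6 ((sixPerm.getD r []).getD i.val 0)

theorem six_check : ∀ (r : Fin chevB2.nroots) (i : Fin 6),
    sixVec (ZMod 2) i ᵥ* chevB2.x (ZMod 2) r 1 = sixVec (ZMod 2) (sixAct r i) := by decide +kernel

theorem sixVec_injective_two : Function.Injective (sixVec (ZMod 2)) := by decide +kernel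

theorem sixAct_invol : ∀ (r : Fin chevB2.nroots) (i : Fin 6), sixAct r (sixAct r i) = i := by decide +kernel

/-- The permutation of the `r`-th root element. -/
def sixEquiv (r : Fin chevB2.nroots) : Equiv.Perm (Fin 6) where
  toFun := sixAct r
  invFun := sixAct r
  left_inv := sixAct_invol r
  right_inv := sixAct_invol r

section

variable {F : Type*} [Field F]

theorem sixVec_map {R S : Type*} [CommRing R] [CommRing S] (f : R →+* S) (i : Fin 6) :
    sixVec S i = f ∘ sixVec R i := by
  funext a
  simp [sixVec]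

/-- Elements permuting the six vectors. -/
def sixStab (F : Type*) [Field F] (g : GL chevB2.Idx F) (σ : Equiv.Perm (Fin 6)) : Prop :=
  ∀ i, sixVec F i ᵥ* ((g⁻¹ : GL chevB2.Idx F) : Matrix chevB2.Idx chevB2.Idx F) = sixVec F (σ i)

theorem sixStab_one : sixStab F 1 1 := fun i => by simp

theorem sixStab_mul {g h : GL chevB2.Idx F} {σ τ : Equiv.Perm (Fin 6)} (hg : sixStab F g σ) (hh : sixStab F h τ) :
    sixStab F (g * h) (σ * τ) := fun i => by
  rw [mul_inv_rev, Units.val_mul, ← Matrix.vecMul_vecMul, hh, hg, Equiv.Perm.mul_apply]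

theorem sixStab_inv {g : GL chevB2.Idx F} {σ : Equiv.Perm (Fin 6)} (hg : sixStab F g σ) :
    sixStab F g⁻¹ σ⁻¹ := fun i => by
  have h := hg (σ.symm i)
  rw [σ.apply_symm_apply] at h
  rw [inv_inv, ← h, Matrix.vecMul_vecMul, ← Units.val_mul, inv_mul_cancel, Units.val_one, Matrix.vecMul_one]
  rfl

theorem nonempty_equiv_symSix [Fintype F] (hF : Fintype.card F = 2) :
    Nonempty (↥(chevB2.group F) ≃* Equiv.Perm (Fin 6)) := by
  classical
  let e : ZMod 2 ≃+* F := ZMod.ringEquivOfPrime F Nat.prime_two hF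
  let f : ZMod 2 →+* F := e.toRingHom
  have hinj : Function.Injective (sixVec F) := fun i j h => sixVec_injective_two <| funext fun a => e.injective <| by
    have := congrFun h a
    rw [sixVec_map f i, sixVec_map f j] at this
    exact this
  have hbit : ∀ t : F, t = 0 ∨ t = 1 := fun t => by
    obtain ⟨z, rfl⟩ := e.surjective t
    fin_cases z
    exacts [Or.inl (map_zero e), Or.inr (map_one e)]
  have hgen : ∀ r : Fin chevB2.nroots, sixStab F (goodB2.xg r (1 : F)) (sixEquiv r) := fun r i => by
    rw [goodB2.xg_inv, show (-1 : F) = 1 from (hbit (-1)).resolve_left (neg_ne_zero.2 one_ne_zero),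
      Good.coe_xg]
    have h := congrArg (fun v => f ∘ v) (six_check r i)
    funext a
    have h' := congrFun h a
    simp only [Function.comp_apply, RingHom.map_vecMul] at h'
    rw [Cfsg.Agent.H47.x_map, map_one, ← sixVec_map f, ← Function.comp_apply (f := f) (g := sixVec _ _),
      ← sixVec_map f] at h'
    exact h'
  have huniq : ∀ {g σ τ}, sixStab F g σ → sixStab F g τ → σ = τ := fun h1 h2 =>
    Equiv.ext fun i => hinj ((h1 i).symm.trans (h2 i))
  have hex : ∀ g ∈ chevB2.group F, ∃ σ, sixStab F g σ := by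
    intro g hg
    induction hg using Subgroup.closure_induction with
    | mem g hg =>
      obtain ⟨r, t, hg⟩ := hg
      have e' : g = goodB2.xg r t := goodB2.eq_xg (by rw [hg]; simp [ChevalleyDatum.x])
      subst e'
      rcases hbit t with rfl | rfl
      · exact ⟨1, by rw [goodB2.xg_zero]; exact sixStab_one⟩
      · exact ⟨_, hgen r⟩
    | one => exact ⟨1, sixStab_one⟩
    | mul a b _ _ iha ihb => obtain ⟨σ, hσ⟩ := iha; obtain ⟨τ, hτ⟩ := ihb; exact ⟨_, sixStab_mul hσ hτ⟩
    | inv a _ iha => obtain ⟨σ, hσ⟩ := iha; exact ⟨_, sixStab_inv hσ⟩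
  choose σ hσ using fun g : ↥(chevB2.group F) => hex g g.2
  let φ : ↥(chevB2.group F) →* Equiv.Perm (Fin 6) :=
    MonoidHom.mk' σ fun a b => huniq (hσ (a * b)) (sixStab_mul (hσ a) (hσ b))
  have hr : ∀ r, sixEquiv r ∈ φ.range := fun r =>
    ⟨⟨goodB2.xg r 1, goodB2.xg_mem_group _ _⟩, huniq (hσ _) (hgen r)⟩
  have hsurj : Function.Surjective φ := by
    rw [← MonoidHom.range_eq_top, eq_top_iff]
    intro p _
    have h01 : Equiv.swap (0 : Fin 6) 1 ∈ φ.range := by
      convert hr (0 : Fin 8) using 1; decide +kernel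
    have h45 : Equiv.swap (4 : Fin 6) 5 ∈ φ.range := by
      convert hr (3 : Fin 8) using 1; decide +kernel
    have h02 : Equiv.swap (0 : Fin 6) 2 ∈ φ.range := by
      convert hr (7 : Fin 8) using 1; decide +kernel
    have h23 : Equiv.swap (2 : Fin 6) 3 ∈ φ.range := by
      convert mul_mem (mul_mem (hr (2 : Fin 8)) h45) (hr (2 : Fin 8)) using 1; decide +kernel
    have h12 : Equiv.swap (1 : Fin 6) 2 ∈ φ.range := by
      convert mul_mem (mul_mem h01 h02) h01 using 1; decide +kernel
    have h34 : Equiv.swap (3 : Fin 6) 4 ∈ φ.range := by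
      convert mul_mem (mul_mem (hr (4 : Fin 8)) h45) (hr (4 : Fin 8)) using 1; decide +kernel
    have hall := Equiv.Perm.mclosure_swap_castSucc_succ 5
    have hp : p ∈ Submonoid.closure (Set.range fun i : Fin 5 => Equiv.swap i.castSucc i.succ) := by
      rw [hall]; trivial
    refine (Submonoid.closure_le (S := φ.range.toSubmonoid)).2 ?_ hp
    rintro _ ⟨i, rfl⟩
    fin_cases i
    exacts [h01, h12, h23, h34, h45]
  have hcard : Nat.card ↥(chevB2.group F) = 720 := by
    have h := goodB2.card_group_mul (F := F) chkWeyl_B2 (degs := _) (by exact chkDegrees_B2) _ smithOk_B2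
      (by decide +kernel)
    rw [hF, show chevB2.nroots / 2 = 4 by decide +kernel] at h
    simpa [smithB2] using h
  have : Finite ↥(chevB2.group F) := Nat.finite_of_card_ne_zero (by omega)
  have h6 : Nat.card (Equiv.Perm (Fin 6)) = 720 := by
    rw [Nat.card_perm, Nat.card_fin]; decide +kernel
  have hb : Function.Bijective φ := by
    rw [Nat.bijective_iff_surjective_and_card]
    exact ⟨hsurj, hcard.trans h6.symm⟩
  exact ⟨MulEquiv.ofBijective φ hb⟩

end

end Cfsg.Agent.H46
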